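import Cfsg.Agent.Lib.Golay.Core
import Cfsg.Prelude.Def_Classical

/-!
# Codes of the field with 4 elements, for vectors and matrices of any size

The field with 4 elements is coded by numbers `a + 2 b` below 4, standing for `a + b ω` with `ω² + ω + 1 = 0`, with a
homomorphism to any field `K` with 4 elements.  Entries of packed vectors and matrices occupy four bits each.
-/

set_option autoImplicit false
set_option linter.style.longLine false
set_option linter.unusedSectionVars false

namespace Cfsg.Agent.Lib.F4Code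

open Cfsg Cfsg.Agent.Lib.Golay.Core
open scoped Matrix

def addC (x y : ℕ) : ℕ := (x % 2 + y % 2) % 2 + 2 * ((x / 2 + y / 2) % 2)
def mulC (x y : ℕ) : ℕ :=
  ((x % 2) * (y % 2) + (x / 2) * (y / 2)) % 2 +
    2 * (((x % 2) * (y / 2) + (x / 2) * (y % 2) + (x / 2) * (y / 2)) % 2)
def frobC (x : ℕ) : ℕ := mulC x x

/-- Sums of codes. -/
def sumC (f : ℕ → ℕ) : ℕ → ℕ
  | 0 => 0
  | k + 1 => addC (sumC f k) (f k)

/-- Entries of packed matrices. -/
def e (n N a b : ℕ) : ℕ := Nat.land (Nat.shiftRight N (4 * (n * a + b))) 15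
/-- Entries of packed vectors. -/
def vv (V a : ℕ) : ℕ := Nat.land (Nat.shiftRight V (4 * a)) 15

/-- Matrix times vector, one coordinate. -/
def mvi (n N V a : ℕ) : ℕ := sumC (fun b => mulC (e n N a b) (vv V b)) n

/-- The form on codes. -/
def hC (n u v : ℕ) : ℕ := sumC (fun b => mulC (vv u b) (frobC (vv v b))) n

/-- Matrix product test. -/
def mmB (n A B C : ℕ) : Bool :=
  allUpTo (fun a => allUpTo (fun b => Nat.beq (sumC (fun c => mulC (e n A a c) (e n B c b)) n) (e n C a b)) n) n

/-- The form on columns. -/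
def orthB (n A : ℕ) : Bool :=
  allUpTo (fun b => allUpTo (fun c => Nat.beq (sumC (fun a => mulC (e n A a b) (frobC (e n A a c))) n)
    (if b = c then 1 else 0)) n) n

theorem addC_lt (x y : ℕ) : addC x y < 4 := by
  unfold addC
  omega

theorem sumC_lt (f : ℕ → ℕ) (k : ℕ) : sumC f k < 4 := by
  cases k with
  | zero => norm_num [sumC]
  | succ k => exact addC_lt _ _

theorem inj_code : ∀ x < 4, ∀ y < 4, addC x y = 0 → x = y := by decide +kernel
theorem inv_code : ∀ s < 4, s ≠ 0 → (List.range 4).any (fun t => Nat.beq (mulC s t) 1) = true := by decide +kernel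

section K

variable {K : Type*} [Field K]

/-- The value of a code. -/
def φ (w : K) (x : ℕ) : K := ((x % 2 : ℕ) : K) + ((x / 2 : ℕ) : K) * w

theorem cast_mod (h2 : (2 : K) = 0) (n : ℕ) : ((n % 2 : ℕ) : K) = (n : K) := by
  have h := Nat.div_add_mod n 2
  have h1 := congrArg (Nat.cast : ℕ → K) h
  push_cast at h1
  rw [h2, zero_mul, zero_add] at h1
  exact h1

variable {w : K} (hw : w ^ 2 + w + 1 = 0) (h2 : (2 : K) = 0)
include hw h2

theorem φ_add (x y : ℕ) : φ w (addC x y) = φ w x + φ w y := by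
  unfold φ addC
  have e1 : ((x % 2 + y % 2) % 2 + 2 * ((x / 2 + y / 2) % 2)) % 2 = (x % 2 + y % 2) % 2 := by omega
  have e2 : ((x % 2 + y % 2) % 2 + 2 * ((x / 2 + y / 2) % 2)) / 2 = (x / 2 + y / 2) % 2 := by omega
  rw [e1, e2, cast_mod h2, cast_mod h2]
  push_cast
  ring

theorem φ_mul (x y : ℕ) : φ w (mulC x y) = φ w x * φ w y := by
  unfold φ mulC
  set a := x % 2
  set b := x / 2
  set c := y % 2
  set d := y / 2
  have e1 : ((a * c + b * d) % 2 + 2 * ((a * d + b * c + b * d) % 2)) % 2 = (a * c + b * d) % 2 := by omega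
  have e2 : ((a * c + b * d) % 2 + 2 * ((a * d + b * c + b * d) % 2)) / 2 = (a * d + b * c + b * d) % 2 := by omega
  rw [e1, e2, cast_mod h2, cast_mod h2]
  push_cast
  linear_combination (-((b : K) * d)) * hw + ((b : K) * d * (1 + w)) * h2

theorem φ_frob (x : ℕ) : φ w (frobC x) = φ w x ^ 2 := by
  unfold frobC
  rw [φ_mul hw h2]
  ring

theorem φ_one : φ w 1 = 1 := by
  simp [φ]

theorem φ_zero : φ w 0 = 0 := by
  simp [φ]

theorem φ_sum (f : ℕ → ℕ) (k : ℕ) : φ w (sumC f k) = ∑ i ∈ Finset.range k, φ w (f i) := by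
  induction k with
  | zero => simp [sumC, φ]
  | succ k ih =>
    rw [Finset.sum_range_succ, ← ih]
    exact φ_add hw h2 _ _

theorem φ_sum_fin (f : ℕ → ℕ) (n : ℕ) : φ w (sumC f n) = ∑ i : Fin n, φ w (f i.1) := by
  rw [φ_sum hw h2, Fin.sum_univ_eq_sum_range (fun i => φ w (f i))]

/-- The map on codes is injective. -/
theorem φ_inj {x y : ℕ} (hx : x < 4) (hy : y < 4) (h : φ w x = φ w y) : x = y := by
  apply inj_code x hx y hy
  set s := addC x y with hs
  have hs0 : φ w s = 0 := by
    rw [hs, φ_add hw h2, h]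
    linear_combination (φ w y) * h2
  have hlt : s < 4 := addC_lt _ _
  by_contra hne
  have h3 := inv_code s hlt hne
  simp only [List.any_eq_true] at h3
  obtain ⟨t, -, ht⟩ := h3
  have h4 := congrArg (φ w) (Nat.eq_of_beq_eq_true ht)
  rw [φ_mul hw h2, hs0, zero_mul, φ_one hw h2] at h4
  exact zero_ne_one h4

/-- The map on codes is onto, if `K` has 4 elements. -/
theorem φ_surj [Fintype K] (hK : Fintype.card K = 4) (k : K) : ∃ x < 4, φ w x = k := by
  let f : Fin 4 → K := fun x => φ w x.1
  have hf : Function.Injective f := fun a b h => Fin.ext (φ_inj hw h2 a.2 b.2 h)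
  have hb : Function.Bijective f := (Fintype.bijective_iff_injective_and_card f).2 ⟨hf, by simp [hK]⟩
  obtain ⟨x, hx⟩ := hb.2 k
  exact ⟨x.1, x.2, hx⟩

omit hw h2 in
/-- The matrix of a code. -/
def toK (n : ℕ) (w : K) (N : ℕ) : Matrix (Fin n) (Fin n) K := Matrix.of fun a b : Fin n => φ w (e n N a.1 b.1)

omit hw h2 in
/-- The vector of a code. -/
def toV (n : ℕ) (w : K) (V : ℕ) : Fin n → K := fun a => φ w (vv V a.1)

omit hw h2 in
theorem toV_apply (n : ℕ) (V : ℕ) (a : Fin n) : toV n w V a = φ w (vv V a.1) := rfl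

omit hw h2 in
theorem toK_apply (n : ℕ) (N : ℕ) (a b : Fin n) : toK n w N a b = φ w (e n N a.1 b.1) := rfl

theorem mv_toV (n N V : ℕ) (a : Fin n) : (toK n w N *ᵥ toV n w V) a = φ w (mvi n N V a.1) := by
  unfold mvi
  rw [φ_sum_fin hw h2, Matrix.mulVec, dotProduct]
  apply Finset.sum_congr rfl
  intro b _
  rw [φ_mul hw h2]
  rfl

theorem herm_code (n u v : ℕ) : hermForm n K 2 (toV n w u) (toV n w v) = φ w (hC n u v) := by
  unfold hermForm hC
  rw [φ_sum_fin hw h2]
  apply Finset.sum_congr rfl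
  intro b _
  rw [φ_mul hw h2, φ_frob hw h2]
  rfl

theorem herm_ne {n u v : ℕ} (h : (!(Nat.beq (hC n u v) 0)) = true) : hermForm n K 2 (toV n w u) (toV n w v) ≠ 0 := by
  rw [herm_code hw h2]
  intro h0
  have h1 : φ w (hC n u v) = φ w 0 := by rw [h0, φ_zero hw h2]
  have h3 : hC n u v = 0 := φ_inj hw h2 (sumC_lt _ _) (by norm_num) h1
  rw [h3] at h
  exact absurd h (by decide)

theorem herm_zero {n u v : ℕ} (h : Nat.beq (hC n u v) 0 = true) : hermForm n K 2 (toV n w u) (toV n w v) = 0 := by
  rw [herm_code hw h2, Nat.eq_of_beq_eq_true h, φ_zero hw h2]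

theorem mm_toK {n A B C : ℕ} (h : mmB n A B C = true) : toK n w A * toK n w B = toK n w C := by
  ext a b
  have h1 := Nat.eq_of_beq_eq_true (allUpTo_iff.mp (allUpTo_iff.mp h a.1 a.2) b.1 b.2)
  rw [Matrix.mul_apply, toK_apply, ← h1, φ_sum_fin hw h2]
  apply Finset.sum_congr rfl
  intro c _
  rw [φ_mul hw h2]
  rfl

/-- Squares of sums. -/
theorem sq_sum {ι : Type*} (s : Finset ι) (f : ι → K) : (∑ i ∈ s, f i) ^ 2 = ∑ i ∈ s, f i ^ 2 := by
  classical
  induction s using Finset.induction_on with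
  | empty => simp
  | insert a s ha ih =>
    rw [Finset.sum_insert ha, Finset.sum_insert ha, ← ih]
    linear_combination (f a * ∑ i ∈ s, f i) * h2

/-- A code with orthonormal columns preserves the form. -/
theorem iso_of_orth {n N : ℕ} (hN : orthB n N = true) (u v : Fin n → K) :
    hermForm n K 2 (toK n w N *ᵥ u) (toK n w N *ᵥ v) = hermForm n K 2 u v := by
  classical
  have key : ∀ b c : Fin n, ∑ a : Fin n, toK n w N a b * (toK n w N a c) ^ 2 = if b = c then 1 else 0 := by
    intro b c
    have h1 := Nat.eq_of_beq_eq_true (allUpTo_iff.mp (allUpTo_iff.mp hN b.1 b.2) c.1 c.2)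
    have h3 := congrArg (φ w) h1
    rw [φ_sum_fin hw h2] at h3
    have h4 : φ w (if b.1 = c.1 then 1 else 0) = if b = c then 1 else 0 := by
      by_cases h : b = c
      · subst h
        simp [φ_one hw h2]
      · have : b.1 ≠ c.1 := fun h' => h (Fin.ext h')
        simp [h, this, φ_zero hw h2]
    rw [h4] at h3
    rw [← h3]
    apply Finset.sum_congr rfl
    intro a _
    rw [φ_mul hw h2, φ_frob hw h2]
    rfl
  generalize toK n w N = X at *
  unfold hermForm
  simp only [Matrix.mulVec, dotProduct]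
  have e1 : ∀ a : Fin n, (∑ c, X a c * v c) ^ 2 = ∑ c, X a c ^ 2 * v c ^ 2 := by
    intro a
    rw [sq_sum hw h2]
    apply Finset.sum_congr rfl
    intro c _
    ring
  simp only [e1]
  calc ∑ a, (∑ b, X a b * u b) * ∑ c, X a c ^ 2 * v c ^ 2
      = ∑ b, ∑ c, u b * v c ^ 2 * ∑ a, X a b * X a c ^ 2 := by
        have h5 : ∀ a, (∑ b, X a b * u b) * ∑ c, X a c ^ 2 * v c ^ 2 =
            ∑ b, ∑ c, (X a b * u b) * (X a c ^ 2 * v c ^ 2) := fun a => Finset.sum_mul_sum _ _ _ _
        simp only [h5]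
        rw [Finset.sum_comm]
        apply Finset.sum_congr rfl
        intro b _
        rw [Finset.sum_comm]
        apply Finset.sum_congr rfl
        intro c _
        rw [Finset.mul_sum]
        apply Finset.sum_congr rfl
        intro a _
        ring
    _ = ∑ b, u b * v b ^ 2 := by
        apply Finset.sum_congr rfl
        intro b _
        simp only [key, mul_ite, mul_one, mul_zero]
        simp

end K

section Exists

variable {K : Type*} [Field K] [Fintype K] (hK : Fintype.card K = 4)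
include hK

theorem two_zero : (2 : K) = 0 := by
  have h : Nat.card K • (1 : K) = 0 := card_nsmul_eq_zero'
  rw [Nat.card_eq_fintype_card, hK] at h
  have h2 : (2 : K) * 2 = 0 := by
    rw [← h]
    norm_num
  simpa using h2

/-- An element of `K` with nonzero cube root of unity: cubes of nonzero elements are one. -/
theorem cube_one {d : K} (hd : d ≠ 0) : d ^ 3 = 1 := by
  have := FiniteField.pow_card_sub_one_eq_one d hd
  rwa [hK] at this

end Exists

end Cfsg.Agent.Lib.F4Code
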